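import Cfsg.Agent.Clifford.GlaubApp
import Cfsg.Agent.SolvStr.Prim

/-!
Berger's theorem: quasi-primitive characters of solvable groups are primitive (Isaacs 11.33, 11.34).
-/

namespace CF.Clifford

open Cfsg CF.Char
open scoped ComplexConjugate

universe u

variable {G : Type*} [Group G]

theorem exists_chief_pair [Finite G] {H : Subgroup G} (hH : IsCoatom H)
    [Group.IsSolvable (G ⧸ H.normalCore)] : ∃ K M : Subgroup G, K.Normal ∧ M.Normal ∧ K ≤ M ∧
      K ⊓ H = H.normalCore ∧ K ⊔ H = ⊤ ∧ (H.normalCore.relIndex K).Coprime (K.relIndex M) ∧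
      (K = ⊤ ∨ ∃ k ∈ K, ∃ x ∈ M ⊓ H, k * x * k⁻¹ * x⁻¹ ∉ H.normalCore) := by
  set L := H.normalCore
  let q := QuotientGroup.mk' L
  have hq : Function.Surjective q := QuotientGroup.mk'_surjective L
  have k : q.ker ≤ H := (QuotientGroup.ker_mk' L).le.trans H.normalCore_le
  have c := CF.Solv.isCoatom_map_of_ker_le hq hH k
  have e := Subgroup.comap_map_eq_self k
  have b : (⊥ : Subgroup (G ⧸ L)).comap q = L := QuotientGroup.ker_mk' L
  have core : (H.map q).normalCore = ⊥ := by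
    rw [eq_bot_iff, ← Subgroup.comap_le_comap_of_surjective hq, b]
    exact Subgroup.normal_le_normalCore.2 ((Subgroup.comap_mono (Subgroup.normalCore_le _)).trans e.le)
  have : Nontrivial (G ⧸ L) := by
    by_contra h
    exact c.1 (by have := not_nontrivial_iff_subsingleton.1 h; exact Subsingleton.elim _ _)
  obtain ⟨N, hN⟩ := CF.Solv.exists_isMinNormal (G := G ⧸ L)
  have := hN.1
  have := hN.isMulCommutative
  have cp := CF.SolvStr.corefree_isComplement'_of_comm c core N hN.2.1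
  have i : N.comap q ⊓ H = L := (congrArg (_ ⊓ ·) e.symm).trans (by
    rw [← Subgroup.comap_inf, cp.disjoint.eq_bot, b])
  have s : N.comap q ⊔ H = ⊤ := (congrArg (_ ⊔ ·) e.symm).trans (by
    rw [Subgroup.comap_sup_eq _ _ _ hq, cp.sup_eq_top, Subgroup.comap_top])
  by_cases h1 : H.map q = ⊥
  · refine ⟨_, _, inferInstance, inferInstance, le_rfl, i, s, by simp, .inl ?_⟩
    have := cp.sup_eq_top
    rw [h1, sup_bot_eq] at this
    rw [this, Subgroup.comap_top]
  obtain ⟨p, Q, hp, h2, h3, h4, -, h5, h6⟩ :=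
    CF.SolvStr.corefree_exists_coprime c core N hN.2.1 h1
  refine ⟨_, (N ⊔ Q).comap q, inferInstance, inferInstance, Subgroup.comap_mono le_sup_left, i, s,
    ?_, .inr ?_⟩
  · have := Fact.mk hp
    obtain ⟨n, hn⟩ := h2.exists_card_eq
    rw [show L.relIndex (N.comap q) = ((⊥ : Subgroup (G ⧸ L)).comap q).relIndex (N.comap q) by rw [b],
      Subgroup.relIndex_comap, Subgroup.relIndex_comap, Subgroup.map_comap_eq_self_of_surjective hq,
      Subgroup.map_comap_eq_self_of_surjective hq, Subgroup.relIndex_bot_left,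
      Subgroup.relIndex_sup_left]
    exact (h5.pow_right n).coprime_dvd_right (hn ▸ Subgroup.relIndex_dvd_card _ _)
  · by_contra! h
    refine h3 (eq_bot_iff.2 (CF.SolvStr.corefree_centralizer_inf c core N hN.2.1 ▸ le_inf ?_ h4))
    intro x hx y hy
    obtain ⟨x, rfl⟩ := hq x
    obtain ⟨y, rfl⟩ := hq y
    have := (QuotientGroup.eq_one_iff _).2 (h y hy x ⟨Subgroup.mem_sup_right hx, e.le (h4 hx)⟩)
    simpa [mul_inv_eq_one, mul_inv_eq_iff_eq_mul, q] using this

/-- Isaacs 11.34. -/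
theorem exists_not_homog [Fintype G] (L H : Subgroup G) [L.Normal] (hLH : L ≤ H) (hmax : IsCoatom H)
    [Group.IsSolvable (G ⧸ L)] {ϑ : H → ℂ} (hϑ : IsCharacter H ϑ)
    (hϑL : IsIrrCharacter L fun x : L => ϑ ⟨x, hLH x.2⟩) (hind : IsIrrCharacter G (indFun H ϑ)) :
    ∃ M : Subgroup G, M.Normal ∧ L ≤ M ∧ ¬ ∃ (φ : M → ℂ) (e : ℕ), IsIrrCharacter M φ ∧
      (fun m : M => indFun H ϑ m) = (e : ℂ) • φ := by
  classical
  by_contra! hom
  have l : L ≤ H.normalCore := Subgroup.normal_le_normalCore.2 hLH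
  have := Group.isSolvable_of_surjective (QuotientGroup.map_surjective_of_surjective L H.normalCore
    (MonoidHom.id G) QuotientGroup.mk_surjective l)
  obtain ⟨K, M, nK, nM, KM, i, s, cop, h⟩ := exists_chief_pair hmax
  set N := H.normalCore
  have NK : N ≤ K := i ▸ inf_le_left
  have NH : N ≤ H := H.normalCore_le
  have := Fintype.ofFinite N
  have := Fintype.ofFinite K
  have := Fintype.ofFinite M
  have := Fintype.ofFinite H
  have := Fintype.ofFinite (H.subgroupOf M)
  have hφ : IsIrrCharacter N fun x => ϑ (Subgroup.inclusion NH x) :=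
    irr_of_comp_irr (Subgroup.inclusion l) (char_comp hϑ _) hϑL
  have d0 : ϑ 1 ≠ 0 := by have := irr_one_ne_zero hφ; rwa [map_one] at this
  have ix : H.index = N.relIndex K := by
    have a := (Subgroup.relIndex_mul_index NK).trans (Subgroup.relIndex_mul_index NH).symm
    rw [show N.relIndex H = K.index by
      rw [← i, Subgroup.inf_relIndex_right, ← Subgroup.relIndex_sup_left, s,
        Subgroup.relIndex_top_right], mul_comm] at a
    exact (mul_left_cancel₀ Subgroup.FiniteIndex.index_ne_zero a).symm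
  have x1 : indFun H ϑ 1 = N.relIndex K * ϑ 1 := ix ▸ indFun_one H ϑ
  obtain ⟨φ, n, a0, r0⟩ := hom N inferInstance l
  obtain ⟨η, e, a1, r1⟩ := hom K nK (l.trans NK)
  obtain ⟨ξ, b, a2, r2⟩ := hom M nM (l.trans (NK.trans KM))
  obtain rfl : φ = fun x => ϑ (Subgroup.inclusion NH x) := eq_of_inner_smul_ne_zero a0 hφ (r0 ▸
    inner_comp_comp_ne_zero H.subtype (Subgroup.inclusion NH) (irr_isCharacter hind)
      (irr_of_comp_irr _ hϑ hφ) (irr_isCharacter hφ) (by
        rw [← inner_ind_right _ _ (irr_isClassFunction hind), ind_subtype, inner_irr_self hind]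
        exact one_ne_zero) (by rw [inner_irr_self hφ]; exact one_ne_zero))
  obtain rfl : n = N.relIndex K := by
    have := (congrFun r0 1).symm.trans x1
    exact_mod_cast mul_right_cancel₀ d0 this
  have n0 : N.relIndex K ≠ 0 := Subgroup.FiniteIndex.index_ne_zero
  have e0 : (e : ℂ) ≠ 0 := fun z => irr_one_ne_zero hind (by simpa [z] using congrFun r1 1)
  have b0 : (b : ℂ) ≠ 0 := fun z => irr_one_ne_zero hind (by simpa [z] using congrFun r2 1)
  let E := NormalEmb.ofLe NK fun t _ x hx => Subgroup.Normal.conj_mem inferInstance x hx t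
  let F := NormalEmb.ofLe KM fun t _ x hx => nK.conj_mem x hx t
  have div : ∀ {A B : Type _} [Group A] [Group B] [Fintype B] (f : B →* A) {x : A → ℂ} {y : B → ℂ}
      {c d : ℕ}, IsCharacter A x → IsIrrCharacter B y → (c : ℂ) ≠ 0 →
      (∀ z, c * x (f z) = d * y z) → ∃ k : ℕ, (fun z => x (f z)) = (k : ℂ) • y ∧ c * k = d := by
    intro A B _ _ _ f x y c d hx hy c0 h
    obtain ⟨k, hk⟩ := inner_char_eq_nat (char_comp hx f) (irr_isCharacter hy)
    have e : (fun z => x (f z)) = ((d : ℂ) / c) • y := funext fun z => by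
      rw [Pi.smul_apply, smul_eq_mul, div_mul_eq_mul_div, ← h, mul_div_cancel_left₀ _ c0]
    rw [e, inner_smul_left, inner_irr_self hy, mul_one] at hk
    exact ⟨k, hk ▸ e, by rw [div_eq_iff c0] at hk; exact_mod_cast (mul_comm _ _).trans hk.symm⟩
  obtain ⟨e', r3, q3⟩ := div E.ι (irr_isCharacter a1) hφ e0
    fun z => (congrFun r1 (E.ι z)).symm.trans (congrFun r0 z)
  have sq := (E.fullyRamified_iff_vanish a1 hφ r3).2 fun g hg => mul_left_cancel₀ e0
    ((congrFun r1 g).symm.trans ((indFun_eq_zero_of_not_conj H ϑ fun x hx => hg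
      ⟨⟨g, by simpa [mul_assoc] using (Subgroup.Normal.conj_mem (H := N) inferInstance _
        (i.le ⟨nK.conj_mem _ g.2 x, hx⟩) x⁻¹)⟩, rfl⟩).trans (mul_zero _).symm))
  rw [NormalEmb.index_ofLe] at sq
  obtain rfl : e = e' := mul_right_cancel₀ (by rintro rfl; exact n0 (by simpa using sq.symm))
    (q3.trans (sq.symm.trans (pow_two _)))
  obtain ⟨f, r4, q4⟩ := div F.ι (irr_isCharacter a2) a1 b0
    fun z => (congrFun r2 (F.ι z)).symm.trans (congrFun r1 z)
  obtain rfl : f = 1 := Nat.eq_one_of_dvd_coprimes cop (q3 ▸ q4 ▸ (dvd_mul_left f b).mul_right _)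
    (NormalEmb.index_ofLe KM _ ▸ F.ramification_dvd_index a1 a2 r4)
  obtain rfl : b = e := (mul_one b).symm.trans q4
  rw [Nat.cast_one, one_smul] at r4
  rcases h with rfl | ⟨k, hk, x, ⟨xM, xH⟩, hx⟩
  · have h1 := inner_comp_equiv Subgroup.topEquiv.toEquiv (indFun H ϑ) (indFun H ϑ)
    rw [inner_irr_self hind, show (fun x => indFun H ϑ (Subgroup.topEquiv.toEquiv x)) = _ from r1,
      inner_smul_left, inner_smul_right, inner_irr_self a1, map_natCast, mul_one, ← Nat.cast_mul,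
      q3, ← ix, Nat.cast_eq_one, Subgroup.index_eq_one] at h1
    exact hmax.1 h1
  let j : H.subgroupOf M →* H := (M.subtype.comp (Subgroup.subtype _)).codRestrict H fun x => x.2
  let E' : NormalEmb N (H.subgroupOf M) := (NormalEmb.ofLe (NK.trans KM)
    fun t _ x hx => Subgroup.Normal.conj_mem inferInstance x hx t).restrict _ fun n => NH n.2
  have hα : IsIrrCharacter (H.subgroupOf M) fun y => ϑ (j y) := irr_of_comp_irr E'.ι (char_comp hϑ j) hφ
  have mk := indFun_restrict_of_mul_eq_top H M (fun g => by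
    obtain ⟨y, hy, z, hz, rfl⟩ := Subgroup.mem_sup_of_normal_right.1
      (sup_comm K H ▸ s ▸ Subgroup.mem_top g : g ∈ H ⊔ K)
    exact ⟨y, hy, z, KM hz, rfl⟩) (char_isClassFunction hϑ)
  have c1 : classInner (fun y : H.subgroupOf M => ξ y) (fun y => ϑ (j y)) = b := by
    rw [← inner_indFun_right _ _ (irr_isClassFunction a2), ← show _ = indFun _ (fun y => ϑ (j y))
      from mk, r2, inner_smul_right, inner_irr_self a2, mul_one, map_natCast]
  have r5 : (fun y : H.subgroupOf M => ξ y) = (b : ℂ) • fun y => ϑ (j y) :=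
    char_eq_of_sub_char_of_one_eq (c1 ▸ char_sub_inner_smul (char_restrict (irr_isCharacter a2) _) hα)
      ((congrFun r4 1).trans (congrFun r3 1))
  have s1 := congrFun (F.avg_mul_conj_self (irr_isCharacter a2) (r4 ▸ a1)) ⟨x, xM⟩
  have s2 := congrFun (E'.avg_mul_conj_self (char_comp hϑ j) hφ) ⟨⟨x, xM⟩, xH⟩
  rw [NormalEmb.avg, inv_mul_eq_one₀ card_ne_zero_complex] at s1 s2
  have s3 : ∑ n : N, ξ (F.ι (E.ι n) * ⟨x, xM⟩) * conj (ξ (F.ι (E.ι n) * ⟨x, xM⟩)) = Nat.card K := by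
    rw [← E.card_mul_index, NormalEmb.index_ofLe, ← q3, Nat.cast_mul, s2, Finset.sum_mul]
    refine Finset.sum_congr rfl fun n _ => ?_
    have := congrFun r5 (E'.ι n * ⟨⟨x, xM⟩, xH⟩)
    rw [show ξ (F.ι (E.ι n) * ⟨x, xM⟩) = _ from this]
    simp only [Pi.smul_apply, smul_eq_mul, map_mul, map_natCast, Nat.cast_mul]; ring
  have s4 := sum_norm_comp_add E.ι E.inj fun y => ‖ξ (F.ι y * ⟨x, xM⟩)‖ ^ 2
  simp only [Complex.mul_conj'] at s1 s3
  have s5 : ∑ y, ‖ξ (F.ι y * ⟨x, xM⟩)‖ ^ 2 = ∑ n : N, ‖ξ (F.ι (E.ι n) * ⟨x, xM⟩)‖ ^ 2 := by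
    exact_mod_cast s1.symm.trans s3.symm
  rw [s5, left_eq_add, Finset.sum_eq_zero_iff_of_nonneg fun _ _ => by positivity] at s4
  rw [Finset.sum_eq_zero fun n _ => by
    have m : k * n * k⁻¹ * (k * x * k⁻¹ * x⁻¹) ∈ K :=
      K.mul_mem (nK.conj_mem _ (NK n.2) k) (by
        rw [mul_assoc, mul_assoc, ← mul_assoc x]; exact K.mul_mem hk (nK.conj_mem _ (K.inv_mem hk) x))
    have := s4 ⟨_, m⟩ (by
      simp only [Finset.mem_filter, Finset.mem_univ, true_and]
      rintro ⟨y, hy⟩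
      have hy : (y : G) = k * n * k⁻¹ * (k * x * k⁻¹ * x⁻¹) := congrArg Subtype.val hy
      exact hx ((N.mul_mem_cancel_left (Subgroup.Normal.conj_mem inferInstance _ n.2 k)).1
        (by have := y.2; rwa [hy] at this)))
    rw [← irr_isClassFunction a2 _ ⟨k, KM hk⟩, show (⟨k, KM hk⟩ * (F.ι (E.ι n) * ⟨x, xM⟩) *
      (⟨k, KM hk⟩ : M)⁻¹) = F.ι ⟨_, m⟩ * ⟨x, xM⟩ from Subtype.ext (by
        change k * (n * x) * k⁻¹ = k * n * k⁻¹ * (k * x * k⁻¹ * x⁻¹) * x; group)]
    exact_mod_cast this] at s3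
  exact card_ne_zero_complex s3.symm

end CF.Clifford
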