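import Cfsg.Agent.Clifford.Berger

/-!
Berger's theorem: quasi-primitive characters of solvable groups are primitive (Isaacs 11.33).
-/

namespace CF.Clifford

open Cfsg CF.Char

variable {G : Type*} [Group G] [Fintype G]

theorem exists_coatom_ind {X : Type*} [Group X] [Fintype X] (f : X →* G) (hf : f.range ≠ ⊤)
    {ψ : X → ℂ} (hψ : IsCharacter X ψ) : ∃ H : Subgroup G, IsCoatom H ∧ f.range ≤ H ∧
      ∃ ϑ, IsCharacter H ϑ ∧ indFun H ϑ = ind f ψ := by
  obtain ⟨H, h1, h2⟩ := (eq_top_or_exists_le_coatom f.range).resolve_left hf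
  have := Fintype.ofFinite H
  exact ⟨H, h1, h2, ind (f.codRestrict H fun x => h2 ⟨x, rfl⟩) ψ, ind_isCharacter _ hψ, by
    rw [← ind_subtype, ind_ind]; rfl⟩

/-- Berger's theorem. -/
theorem berger [Group.IsSolvable G] {χ : G → ℂ} (hχ : IsIrrCharacter G χ)
    (hqp : ∀ N : Subgroup G, N.Normal → ∃ (ϑ : N → ℂ) (e : ℕ), IsIrrCharacter N ϑ ∧
      (fun n : N => χ n) = (e : ℂ) • ϑ) (T : Subgroup G) (hT : T ≠ ⊤) {ψ : T → ℂ}
    (hψ : IsCharacter T ψ) : indFun T ψ ≠ χ := by
  classical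
  suffices h : ∀ n, ∀ H : Subgroup G, IsCoatom H → H.normalCore.index = n →
      ∀ ϑ, IsCharacter H ϑ → indFun H ϑ ≠ χ by
    have := Fintype.ofFinite T
    obtain ⟨H, h1, -, ϑ, h2, h3⟩ := exists_coatom_ind T.subtype (by rwa [T.range_subtype]) hψ
    rw [← ind_subtype, ← h3]
    exact h _ H h1 rfl ϑ h2
  intro n
  induction n using Nat.strong_induction_on with | _ n ih => ?_
  rintro H hH rfl ϑ hϑ rfl
  obtain ⟨K, -, nK, -, -, i, s, -⟩ := exists_chief_pair hH
  set L := H.normalCore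
  have LH : L ≤ H := H.normalCore_le
  have := Fintype.ofFinite L
  have := Fintype.ofFinite H
  have hϑi : IsIrrCharacter H ϑ := irr_of_irr_indFun H hϑ hχ
  obtain ⟨φ, e, hφ, r0⟩ := hqp L inferInstance
  have e0 : (e : ℂ) ≠ 0 := fun z => irr_one_ne_zero hχ (by simpa [z] using congrFun r0 1)
  let E := NormalEmb.ofLe LH fun t _ x hx => Subgroup.Normal.conj_mem inferInstance x hx t
  have un : ∀ η, IsIrrCharacter L η → classInner (fun x => ϑ (E.ι x)) η ≠ 0 → η = φ :=
    fun η hη h => (eq_of_inner_smul_ne_zero hφ hη (r0 ▸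
      inner_comp_comp_ne_zero H.subtype E.ι (irr_isCharacter hχ) hϑi (irr_isCharacter hη) (by
        rw [← inner_ind_right _ _ (irr_isClassFunction hχ), ind_subtype, inner_irr_self hχ]
        exact one_ne_zero) h)).symm
  have r1 := eq_smul_of_unique_constituent (char_isClassFunction (char_comp hϑ E.ι)) hφ un
  set c := classInner (fun x => ϑ (E.ι x)) φ
  obtain ⟨Γ, _, _, E', π, θ, lam, F⟩ := E.exists_isLift hφ (E.invariant_of_res_eq_smul
    (char_isClassFunction (char_restrict (irr_isCharacter hχ) H)) e0 r0)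
  have := Fintype.ofFinite Γ
  obtain ⟨β', hβ', b1, b2⟩ := E'.exists_char_mul_ext hφ (irr_isCharacter F.irr) F.ext
    (char_comp hϑ π) (by simpa only [F.π_ι] using un)
  obtain ⟨β, hβ, rfl⟩ := exists_char_of_ker_le hβ' (QuotientGroup.mk' E'.ι.range)
    (QuotientGroup.mk'_surjective _) (by
      rw [QuotientGroup.ker_mk']; rintro _ ⟨x, rfl⟩; exact (mem_charKer_iff hβ').2 (b1 x))
  let ρ : Γ ⧸ E'.ι.range →* G ⧸ K := QuotientGroup.map _ _ (H.subtype.comp π) (by
    rintro _ ⟨x, rfl⟩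
    rw [Subgroup.mem_comap, MonoidHom.comp_apply, F.π_ι]
    exact (i.ge x.2).1)
  let P := MonoidHom.eqLocus ((QuotientGroup.mk' K).comp (MonoidHom.fst G _))
    (ρ.comp (MonoidHom.snd G _))
  let p : P →* G := (MonoidHom.fst G _).comp P.subtype
  let b : P → ℂ := fun x => β x.1.2
  have hb : IsCharacter P b := char_comp hβ ((MonoidHom.snd G _).comp P.subtype)
  have hp : Function.Surjective p := fun g => by
    obtain ⟨y, hy, z, hz, rfl⟩ := Subgroup.mem_sup_of_normal_left.1 (s ▸ Subgroup.mem_top g : g ∈ K ⊔ H)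
    obtain ⟨x, hx⟩ := F.surj ⟨z, hz⟩
    refine ⟨⟨(y * z, x), ?_⟩, rfl⟩
    change ((y * z : G) : G ⧸ K) = ((π x : G) : G ⧸ K)
    rw [hx, QuotientGroup.mk_mul, (QuotientGroup.eq_one_iff y).2 hy, one_mul]
  let j₀ : Γ →* P := ((H.subtype.comp π).prod (QuotientGroup.mk' _)).codRestrict P fun x => rfl
  let j₁ : Γ →* H.comap p := j₀.codRestrict _ fun x => (π x).2
  let j : Γ ≃* H.comap p := MulEquiv.ofBijective j₁ ⟨(injective_iff_map_eq_one _).2 fun x hx => by
    have h1 : (π x : G) = 1 := congrArg (fun y : H.comap p => y.1.1.1) hx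
    obtain ⟨y, rfl⟩ := (QuotientGroup.eq_one_iff x).1 (congrArg (fun y : H.comap p => y.1.1.2) hx)
    rw [F.π_ι] at h1
    rw [show y = 1 from Subtype.ext h1, map_one], by
      rintro ⟨⟨⟨g, x⟩, h1⟩, h2⟩
      obtain ⟨x, rfl⟩ := QuotientGroup.mk_surjective x
      have h3 : (π x : G)⁻¹ * g ∈ L := i.le ⟨QuotientGroup.eq.1 (Eq.symm h1),
        H.mul_mem (H.inv_mem (π x).2) h2⟩
      refine ⟨x * E'.ι ⟨_, h3⟩, Subtype.ext (Subtype.ext (Prod.ext ?_ ?_))⟩
      · change (π (x * E'.ι ⟨_, h3⟩) : G) = g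
        rw [map_mul, F.π_ι]; exact mul_inv_cancel_left _ _
      · exact QuotientGroup.mk_mul_of_mem x ⟨_, rfl⟩⟩
  have : Group.IsSolvable π.ker := Group.isSolvable_of_comm fun x y => Subtype.ext
    (Subgroup.mem_center_iff.1 (F.central y.2) x)
  have : Group.IsSolvable Γ := Group.isSolvable_of_ker_le_range π.ker.subtype π (by simp)
  have := Fintype.ofFinite P
  have := Fintype.ofFinite (H.comap p)
  have := Fintype.ofFinite (L.comap p)
  have hθ : IsCharacter _ fun y => θ (j.symm y) :=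
    char_comp (irr_isCharacter F.irr) j.symm.toMonoidHom
  have k : ∀ y : H.comap p, θ (j.symm y) * b y = ϑ ⟨p y, y.2⟩ := fun y => by
    obtain ⟨x, rfl⟩ := j.surjective y
    rw [j.symm_apply_apply, mul_comm]
    exact congrFun b2 x
  have m : indFun (H.comap p) (fun y => θ (j.symm y)) * b = fun y => indFun H ϑ (p y) := by
    rw [← indFun_comap p hp, ← funext k, indFun_mul_restrict _ _ (char_isClassFunction hb)]; rfl
  have hΨ := irr_of_mul_irr (char_indFun _ hθ) hb (m ▸ irr_comp_of_surjective hχ p hp)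
  have a : IsIrrCharacter (L.comap p) fun x => θ (j.symm ⟨x, LH x.2⟩) :=
    irr_of_comp_irr ((j₀.comp E'.ι).codRestrict (L.comap p) fun x => by
      change (π (E'.ι x) : G) ∈ L
      rw [F.π_ι]; exact x.2)
      (char_comp hθ (Subgroup.inclusion (Subgroup.comap_mono LH))) (by
        convert hφ using 2 with x
        rw [← F.ext]
        exact congrArg θ (j.symm_apply_apply _))
  obtain ⟨M, nM, LM, hM⟩ := exists_not_homog (L.comap p) (H.comap p) (Subgroup.comap_mono LH)
    (Subgroup.isCoatom_comap_of_surjective hp hH) hθ a hΨ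
  have hM' : ¬ RelPrim M (indFun (H.comap p) fun y => θ (j.symm y)) := fun h =>
    let ⟨x, y, h1, _, h2⟩ := h.homog hΨ (.sub M) (M.range_subtype).ge
    hM ⟨x, y, h1, h2⟩
  obtain ⟨U, MU, U1, ξ, hξ, q⟩ : ∃ U, M ≤ U ∧ U ≠ ⊤ ∧ ∃ ξ, IsCharacter U ξ ∧
      indFun U ξ = indFun (H.comap p) fun y => θ (j.symm y) := by
    by_contra! h
    exact hM' fun U h1 h2 ξ h3 => by convert h U h1 h2 ξ h3
  have := Fintype.ofFinite U
  have kU : p.ker ≤ M := le_trans (fun x hx => by
    rw [Subgroup.mem_comap, MonoidHom.mem_ker.1 hx]; exact L.one_mem) LM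
  obtain ⟨H', c1, c2, ϑ', c3, c4⟩ := exists_coatom_ind (p.comp U.subtype) (by
    rw [MonoidHom.range_comp, U.range_subtype]
    intro h
    exact U1 (by rw [← Subgroup.comap_map_eq_self (kU.trans MU), h, Subgroup.comap_top]))
    (char_mul hξ (char_restrict hb U))
  rw [MonoidHom.range_comp, U.range_subtype] at c2
  have := nM.map p hp
  have c5 : M.map p ≤ H'.normalCore :=
    Subgroup.normal_le_normalCore.2 ((Subgroup.map_mono MU).trans c2)
  have c6 : L ≤ M.map p := (Subgroup.map_comap_eq_self_of_surjective hp L).ge.trans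
    (Subgroup.map_mono LM)
  refine ih _ (Subgroup.index_strictAnti ((c6.trans c5).lt_of_ne fun h => hM ?_)) H' c1 rfl ϑ' c3 ?_
  · obtain rfl : M = L.comap p := LM.antisymm' (Subgroup.map_le_iff_le_comap.1 (c5.trans h.ge))
    obtain ⟨f, hf⟩ := inner_char_eq_nat (char_restrict (irr_isCharacter hΨ) (L.comap p))
      (irr_isCharacter a)
    have d0 := irr_one_ne_zero hϑi
    have c0 : c ≠ 0 := fun z => d0 (by simpa [z] using congrFun r1 1)
    have w : (fun x : L.comap p => indFun (H.comap p) (fun y => θ (j.symm y)) x) =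
        (e / c) • fun x : L.comap p => θ (j.symm ⟨x, LH x.2⟩) := funext fun x => by
      have b0 : b x ≠ 0 := fun z => by
        obtain ⟨y, hy⟩ := j.surjective ⟨x, LH x.2⟩
        have u := congrFun b2 (y * (E'.ι ⟨p x, x.2⟩)⁻¹)
        have v : π y = E.ι ⟨p x, x.2⟩ := Subtype.ext (congrArg (fun y : H.comap p => y.1.1.1) hy)
        have v' : (y : Γ ⧸ E'.ι.range) = x.1.1.2 := congrArg (fun y : H.comap p => y.1.1.2) hy
        rw [Pi.mul_apply, map_mul π, map_inv π, F.π_ι, v, mul_inv_cancel, QuotientGroup.mk'_apply,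
          QuotientGroup.mk_mul_of_mem _ (E'.ι.range.inv_mem ⟨_, rfl⟩), v'] at u
        exact d0 (u.symm.trans (mul_eq_zero_of_left z _))
      refine mul_right_cancel₀ b0 ((congrFun m x).trans ((congrFun r0 ⟨p x, x.2⟩).trans ?_))
      rw [Pi.smul_apply, Pi.smul_apply, smul_eq_mul, smul_eq_mul, mul_assoc,
        show _ * b x = _ from (k ⟨x, LH x.2⟩).trans (congrFun r1 ⟨p x, x.2⟩), Pi.smul_apply,
        smul_eq_mul, ← mul_assoc, div_mul_cancel₀ _ c0]
    rw [w, inner_smul_left, inner_irr_self a, mul_one] at hf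
    exact ⟨_, f, a, hf ▸ w⟩
  · rw [c4, ← ind_ind, ind_subtype, show indFun U (ξ * fun x : U => b x) = _ from
      indFun_mul_restrict U ξ (char_isClassFunction hb), q, show (fun g => _ * b g) = _ from m,
      ind_surjective p hp (irr_isClassFunction hχ)]

end CF.Clifford
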